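import Cfsg.Agent.H273.EPU.Soc
import Cfsg.Agent.H212.EP.Count
import Cfsg.Agent.H173.EP.LineBound
import Cfsg.Agent.H419.EP.Soc
import Cfsg.Agent.Schreier.Basic
import Cfsg.Agent.Lib.SolvableMinNormal

/-!
# S3499: the two-point stabilisers are determined by their intersections with the socle (helper196)

`inf_ne_bot` : `EPT A Γ`, `N = soc(A)` simple with the Schreier property: `A ∩ A^x ∩ N ≠ 1`.
`ncard_le_locK` : at most `|LocK N|` groups `A ∩ A^x`.
`card_le_of_locK` : `|LocK N| ≤ 2|N|²` implies `|Q| ≤ |A|⁴`.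
-/

set_option autoImplicit false
set_option linter.unusedSectionVars false

namespace Cfsg.Agent.H196.EP

open Subgroup Cfsg.Agent.H284 Cfsg.Agent.H839.EP Cfsg.Agent.H273.EPU Cfsg.Agent.H419.EP
open Cfsg.Agent.Schreier.Basic
open scoped commutatorElement

variable {Q : Type*} [Group Q] {A N : Subgroup Q} {Γ : Subgroup (MulAut Q)}

/-- a subgroup of `A` which meets the socle trivially is solvable -/
theorem solv_of_inf [Finite Q] (hS : Soc A N) (hSch : Sch N) {M : Subgroup Q} (hM : M ≤ A) (hMN : M ⊓ N = ⊥) :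
    Group.IsSolvable M := by
  have hn : (N.subgroupOf A).Normal := ⟨fun n hn g => hS.nor g g.2 n hn⟩
  let f : A →* MulAut N :=
    { toFun := fun a =>
        { toFun := fun n => ⟨a * n * (a : Q)⁻¹, hS.nor a a.2 n n.2⟩
          invFun := fun n => ⟨(a : Q)⁻¹ * n * a, by
            have := hS.nor (a : Q)⁻¹ (A.inv_mem a.2) n n.2
            rwa [inv_inv] at this⟩
          left_inv := fun n => Subtype.ext (by
            show (a : Q)⁻¹ * (a * n * (a : Q)⁻¹) * a = n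
            group)
          right_inv := fun n => Subtype.ext (by
            show (a : Q) * ((a : Q)⁻¹ * n * a) * (a : Q)⁻¹ = n
            group)
          map_mul' := fun n m => Subtype.ext (by
            show (a : Q) * (n * m) * (a : Q)⁻¹ = a * n * (a : Q)⁻¹ * (a * m * (a : Q)⁻¹)
            group) }
      map_one' := by
        ext n
        show ((1 : A) : Q) * n * ((1 : A) : Q)⁻¹ = n
        rw [Subgroup.coe_one, one_mul, inv_one, mul_one]
      map_mul' := fun a b => by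
        ext n
        show ((a * b : A) : Q) * n * ((a * b : A) : Q)⁻¹ = a * (b * n * (b : Q)⁻¹) * (a : Q)⁻¹
        rw [Subgroup.coe_mul]
        group }
  have hf : ∀ (a : A) (n : N), ((f a n : N) : Q) = a * n * (a : Q)⁻¹ := fun a n => rfl
  apply isSolvable_of_perfect_eq_bot
  intro D hD hDD
  have hDA : D ≤ A := hD.trans hM
  have hD' : ⁅D.subgroupOf A, D.subgroupOf A⁆ = D.subgroupOf A := by
    apply Subgroup.map_injective A.subtype_injective
    rw [Subgroup.map_commutator, Subgroup.subgroupOf_map_subtype, inf_eq_left.2 hDA, hDD]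
  have h1 := hSch _ (map_perfect f hD')
  rw [Subgroup.eq_bot_iff_forall]
  intro d hd
  obtain ⟨n, hn⟩ := h1 ⟨⟨d, hDA hd⟩, mem_subgroupOf.2 hd, rfl⟩
  have h2 : (n : Q)⁻¹ * d = 1 := by
    apply hS.cen _ (A.mul_mem (A.inv_mem (hS.le n.2)) (hDA hd))
    intro x hx
    have h3 := congrArg (fun z : N => (z : Q)) (DFunLike.congr_fun hn ⟨x, hx⟩)
    have h4 : (n : Q) * x * (n : Q)⁻¹ = d * x * d⁻¹ := by
      have h5 := hf ⟨d, hDA hd⟩ ⟨x, hx⟩
      simpa [MulAut.conj_apply, h5] using h3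
    calc (n : Q)⁻¹ * d * x = (n : Q)⁻¹ * (d * x * d⁻¹) * d := by group
      _ = (n : Q)⁻¹ * (n * x * (n : Q)⁻¹) * d := by rw [h4]
      _ = x * ((n : Q)⁻¹ * d) := by group
  have h3 : d = n := (inv_mul_eq_one.1 h2).symm
  have h4 : d ∈ M ⊓ N := ⟨hD hd, h3 ▸ n.2⟩
  rwa [hMN, mem_bot] at h4

/-- **`A ∩ A^x` meets the socle** -/
theorem inf_ne_bot [Finite Q] (hQ : IsSimpleGroup Q) (h : EPT A Γ) (hS : Soc A N) (hs : IsSimpleGroup N)
    (hnc : ¬ ∀ a ∈ N, ∀ b ∈ N, a * b = b * a) (hSch : Sch N) {x : Q} (hx : x ∉ A) : A ⊓ cj x A ⊓ N ≠ ⊥ := by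
  intro h0
  have hinv := hS.inv h hs
  have hsol : Group.IsSolvable (A ⊓ cj x A : Subgroup Q) := solv_of_inf hS hSch inf_le_left h0
  have : Nontrivial (A ⊓ cj x A : Subgroup Q) := (Subgroup.nontrivial_iff_ne_bot _).2 (h.M0 x hx)
  obtain ⟨r, hr, R, hRc, -, hRp, hR0⟩ := Cfsg.Agent.Lib.SolvableMinNormal.exists_characteristic_pgroup
    (G := (A ⊓ cj x A : Subgroup Q))
  set R' : Subgroup Q := R.map (A ⊓ cj x A).subtype with hR'
  have hR'M : R' ≤ A ⊓ cj x A := by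
    rintro _ ⟨y, _, rfl⟩
    exact y.2
  have hR'0 : R' ≠ ⊥ := by
    intro e
    rw [hR', Subgroup.map_eq_bot_iff_of_injective _ (Subgroup.subtype_injective _)] at e
    exact hR0 e
  have hR'i : ∀ σ ∈ Γ, x⁻¹ * σ x ∈ A → ∀ k ∈ R', σ k ∈ R' := by
    rintro σ hσ hσx _ ⟨y, hy, rfl⟩
    have hs' : ∀ y : (A ⊓ cj x A : Subgroup Q), σ (y : Q) ∈ A ⊓ cj x A := fun y => h.stab_M0 hσ hσx y.2
    let f : (A ⊓ cj x A : Subgroup Q) →* (A ⊓ cj x A : Subgroup Q) :=
      { toFun := fun y => ⟨σ (y : Q), hs' y⟩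
        map_one' := Subtype.ext (map_one σ)
        map_mul' := fun a b => Subtype.ext (map_mul σ _ _) }
    have hf : Function.Injective f := by
      intro a b e
      have e' : σ (a : Q) = σ (b : Q) := congrArg (fun z : (A ⊓ cj x A : Subgroup Q) => (z : Q)) e
      exact Subtype.ext (σ.injective e')
    let τ : MulAut (A ⊓ cj x A : Subgroup Q) := MulEquiv.ofBijective f (Finite.injective_iff_bijective.1 hf)
    have hτ : R.map τ.toMonoidHom = R := Subgroup.characteristic_iff_map_eq.1 hRc τ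
    have h1 : τ y ∈ R := by
      rw [← hτ]
      exact ⟨y, hy, rfl⟩
    exact ⟨τ y, h1, rfl⟩
  -- work in `Aut Q`
  have hci : Function.Injective (MulAut.conj : Q →* MulAut Q) := by
    rw [injective_iff_map_eq_one]
    intro q hq
    apply Cfsg.Agent.H212.EP.center_bot h hQ
    intro y
    have h2 := congrArg (fun σ : MulAut Q => σ y) hq
    simp only [MulAut.conj_apply, MulAut.one_apply] at h2
    exact mul_inv_eq_iff_eq_mul.1 h2
  apply hnc
  intro a ha b hb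
  apply hci
  rw [map_mul, map_mul]
  have hMN : ∀ m ∈ Cfsg.Agent.H212.EP.stb h x, ∀ n ∈ N.map (MulAut.conj : Q →* MulAut Q),
      m * n * m⁻¹ ∈ N.map (MulAut.conj : Q →* MulAut Q) := by
    rintro m hm _ ⟨n, hn, rfl⟩
    exact ⟨m n, hinv m hm.1 n hn, (aut_conj m n).symm⟩
  refine reg_core_sub (M := Cfsg.Agent.H212.EP.stb h x) (N := N.map (MulAut.conj : Q →* MulAut Q))
    (R := R'.map (MulAut.conj : Q →* MulAut Q)) (r := r) hMN ?_ ?_ hr ?_ ?_ ?_ _ ⟨a, ha, rfl⟩ _ ⟨b, hb, rfl⟩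
  · rintro _ ⟨k, hk, rfl⟩
    exact ⟨(h.conj k).2 (mem_inf.1 (hR'M hk)).1, (h.conj_stab (mem_inf.1 (hR'M hk)).1).2 (mem_inf.1 (hR'M hk)).2⟩
  · rintro m hm _ ⟨k, hk, rfl⟩
    exact ⟨m k, hR'i m hm.1 hm.2 k hk, (aut_conj m k).symm⟩
  · exact (hRp.map _).map _
  · rintro _ ⟨n, hn, rfl⟩ hc
    have h1 : n ∈ A ⊓ cj x A ⊓ N := by
      refine ⟨⟨hS.le hn, ?_⟩, hn⟩
      apply (h.conj_stab (hS.le hn)).1
      apply h.norm x hx R' hR'M hR'i hR'0 _ ((h.conj n).2 (hS.le hn))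
      intro k hk
      have h2 := hc _ ⟨k, hk, rfl⟩
      rw [← map_mul, ← map_mul] at h2
      rw [MulAut.conj_apply, ← hci h2, mul_inv_cancel_right]
      exact hk
    rw [h0, mem_bot] at h1
    rw [h1, map_one]
  · intro L hL hLn
    have hNΓ : N.map (MulAut.conj : Q →* MulAut Q) ≤ Γ := by
      rintro _ ⟨n, hn, rfl⟩
      exact (h.conj n).2 (hS.le hn)
    have hstΓ : Cfsg.Agent.H212.EP.stb h x ≤ Γ := fun σ hσ => hσ.1
    have key : ∀ l ∈ N.map (MulAut.conj : Q →* MulAut Q), l ∈ Cfsg.Agent.H212.EP.stb h x → l = 1 := by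
      rintro _ ⟨n, hn, rfl⟩ hl
      have h1 : n ∈ A ⊓ cj x A ⊓ N := ⟨⟨hS.le hn, (h.conj_stab (hS.le hn)).1 hl.2⟩, hn⟩
      rw [h0, mem_bot] at h1
      rw [h1, map_one]
    rcases h.two x hx (Cfsg.Agent.H212.EP.stb h x ⊔ L) (sup_le hstΓ (hL.trans hNΓ))
      (fun σ h1 h2 => (le_sup_left : _ ≤ Cfsg.Agent.H212.EP.stb h x ⊔ L) ⟨h1, h2⟩) with h3 | h3
    · right
      apply le_antisymm hL
      intro a' ha'
      obtain ⟨l, hl, m, hm, e⟩ := mem_sup_norm hLn (x := a') (by rw [h3]; exact hNΓ ha')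
      have h4 : m = 1 := by
        apply key m _ hm
        have h5 : m = l⁻¹ * a' := by rw [e, inv_mul_cancel_left]
        rw [h5]
        exact mul_mem (inv_mem (hL hl)) ha'
      rw [e, h4, mul_one]
      exact hl
    · left
      rw [Subgroup.eq_bot_iff_forall]
      intro l hl
      have hl' : l ∈ Cfsg.Agent.H212.EP.stb h x ⊔ L := (le_sup_right : L ≤ _) hl
      exact key l (hL hl) ⟨hNΓ (hL hl), h3 l hl'⟩

/-- **the two-point stabilisers, counted in the socle** -/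
theorem ncard_le_locK [Finite Q] (hQ : IsSimpleGroup Q) (h : EPT A Γ) (hS : Soc A N) (hs : IsSimpleGroup N)
    (hnc : ¬ ∀ a ∈ N, ∀ b ∈ N, a * b = b * a) (hSch : Sch N) :
    {M : Subgroup Q | ∃ x, x ∉ A ∧ M = A ⊓ cj x A}.ncard ≤ (LocK N).ncard := by
  have hinv := hS.inv h hs
  have hMN : ∀ x : Q, ∀ σ ∈ Γ, x⁻¹ * σ x ∈ A → ∀ k ∈ A ⊓ cj x A ⊓ N, σ k ∈ A ⊓ cj x A ⊓ N :=
    fun x σ hσ hσx k hk => ⟨h.stab_M0 hσ hσx (mem_inf.1 hk).1, hinv σ hσ k (mem_inf.1 hk).2⟩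
  refine Set.ncard_le_ncard_of_injOn (fun M => M.subgroupOf N) ?_ ?_ (Set.toFinite _)
  · rintro _ ⟨x, hx, rfl⟩
    refine ⟨?_, ?_⟩
    · intro h0
      apply inf_ne_bot hQ h hS hs hnc hSch hx
      rw [Subgroup.subgroupOf_eq_bot, disjoint_iff] at h0
      exact h0
    · intro Y hY hY0 n hn
      exact mem_of_char h hS hinv hx (fun y => Iff.rfl) Y hY hY0 hn
  · have key : ∀ x y, x ∉ A → y ∉ A → (A ⊓ cj x A).subgroupOf N = (A ⊓ cj y A).subgroupOf N →
        A ⊓ cj x A ≤ A ⊓ cj y A := by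
      intro x y hx hy he m hm
      have he' : A ⊓ cj x A ⊓ N = A ⊓ cj y A ⊓ N := by
        have h1 := congrArg (Subgroup.map N.subtype) he
        rwa [Subgroup.subgroupOf_map_subtype, Subgroup.subgroupOf_map_subtype] at h1
      refine mem_of_norm h hy (K := A ⊓ cj y A ⊓ N) inf_le_left (hMN y) (inf_ne_bot hQ h hS hs hnc hSch hy)
        (mem_inf.1 hm).1 ?_
      intro k hk
      rw [← he'] at hk ⊢
      exact ⟨(A ⊓ cj x A).mul_mem ((A ⊓ cj x A).mul_mem hm (mem_inf.1 hk).1) ((A ⊓ cj x A).inv_mem hm),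
        hS.nor m (mem_inf.1 hm).1 k (mem_inf.1 hk).2⟩
    rintro _ ⟨x, hx, rfl⟩ _ ⟨y, hy, rfl⟩ e
    exact le_antisymm (key x y hx hy e) (key y x hy hx e.symm)

/-- **the number of two-point stabilisers for `soc(A) = L`** -/
theorem ncard_le_of_soc [Finite Q] (hQ : IsSimpleGroup Q) (h : EPT A Γ) {L : Type*} [Group L] (hL : IsSimpleGroup L)
    (hLn : ¬ IsMulCommutative L) (hSch : Sch L) (hA : HasSoc A L) :
    {M : Subgroup Q | ∃ x, x ∉ A ∧ M = A ⊓ cj x A}.ncard ≤ (LocK L).ncard := by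
  obtain ⟨N, h1, h2, h3, ⟨e⟩⟩ := hA
  have : Finite L := Finite.of_equiv _ e.toEquiv
  have hs : IsSimpleGroup N := by
    have := hL
    exact e.isSimpleGroup
  have hnc : ¬ ∀ a ∈ N, ∀ b ∈ N, a * b = b * a := by
    intro hc
    apply hLn
    refine ⟨⟨fun a b => ?_⟩⟩
    apply e.symm.injective
    rw [map_mul, map_mul]
    exact Subtype.ext (hc _ (e.symm a).2 _ (e.symm b).2)
  exact (ncard_le_locK hQ h ⟨h1, h2, h3⟩ hs hnc (hSch.of_equiv e.symm)).trans (ncard_locK_le e)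

/-- **the bound for the order of `Q`** -/
theorem card_le_of_locK [Finite Q] (hQ : IsSimpleGroup Q) (h : EPT A Γ) {L : Type*} [Group L] (hL : IsSimpleGroup L)
    (hLn : ¬ IsMulCommutative L) (hSch : Sch L) (hA : HasSoc A L) (hc : (LocK L).ncard ≤ 2 * Nat.card L ^ 2) :
    Nat.card Q ≤ Nat.card A ^ 4 := by
  have hr := (ncard_le_of_soc hQ h hL hLn hSch hA).trans hc
  have hLA : Nat.card L ≤ Nat.card A := Nat.le_of_dvd Nat.card_pos hA.card_dvd
  have hnc : ¬ ∀ a b : L, a * b = b * a := fun hc => hLn ⟨⟨hc⟩⟩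
  have hnoab : ∀ K : Subgroup Q, K ≤ A → (∀ a ∈ A, ∀ k ∈ K, a * k * a⁻¹ ∈ K) →
      (∀ a ∈ K, ∀ b ∈ K, a * b = b * a) → K = ⊥ := fun K h1 h2 h3 => hA.no_abelian hL hnc h1 h2 h3
  have hub := Cfsg.Agent.H173.EP.ub1 hQ h (μ := 6) (by norm_num) fun _ hx => Cfsg.Agent.H59.EP.EPT.six_le h hnoab hx
  have hidx := Cfsg.Agent.H59.EP.index_le_of hr hub le_rfl
  have h6 : 6 * (Nat.card A / 6) ≤ Nat.card A := Nat.mul_div_le _ _
  have hA2 : 2 ≤ Nat.card A := by
    by_contra hcon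
    have h1 : Nat.card A = 1 := by
      have : 0 < Nat.card A := Nat.card_pos
      omega
    exact h.ne (Subgroup.card_eq_one.1 h1)
  have hmul : Nat.card Q = Nat.card A * A.index := (A.card_mul_index).symm
  rw [hmul]
  set a := Nat.card A with ha
  have h2 : 2 * Nat.card L ^ 2 ≤ 2 * a ^ 2 := Nat.mul_le_mul_left _ (Nat.pow_le_pow_left hLA 2)
  have h3 : A.index ≤ 1 + 2 * a ^ 2 * (2 * (a / 6)) := hidx.trans (Nat.add_le_add_left (Nat.mul_le_mul_right _ h2) 1)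
  have h4 : 3 * A.index ≤ 3 + 2 * a ^ 3 := by
    calc 3 * A.index ≤ 3 * (1 + 2 * a ^ 2 * (2 * (a / 6))) := Nat.mul_le_mul_left _ h3
      _ = 3 + 2 * a ^ 2 * (6 * (a / 6)) := by ring
      _ ≤ 3 + 2 * a ^ 2 * a := Nat.add_le_add_left (Nat.mul_le_mul_left _ h6) 3
      _ = 3 + 2 * a ^ 3 := by ring
  have h5 : 3 ≤ a ^ 3 := by
    calc 3 ≤ 2 ^ 3 := by norm_num
      _ ≤ a ^ 3 := Nat.pow_le_pow_left hA2 3
  have h7 : A.index ≤ a ^ 3 := by omega
  calc a * A.index ≤ a * a ^ 3 := Nat.mul_le_mul_left _ h7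
    _ = a ^ 4 := by ring

end Cfsg.Agent.H196.EP
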